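import Cfsg.Agent.H680.ExcSz
import Cfsg.Agent.H659.TwF4Adj
import Cfsg.Agent.H659.TwF4Ord
import Cfsg.Agent.H659.PglTwF4

/-!
# Task 1573 (EXC-SZ-TF4), second half: `²F₄(q)`

A prime `s ≥ 11` dividing `q⁴ - 1`, `d = 1, 2, 4` the order of `q` modulo `s`: the elements of order `s ^ j` have
`s ^ j ∣ Φ_d(q)` (already in `F₄(q)`), and `Φ_d(q)²` divides the order, so the Sylow `s`-subgroups are not cyclic.
The other primes divide one of `q² - q + 1` and the two factors of `q⁴ - q² + 1`.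
-/

set_option autoImplicit false

namespace Cfsg.Agent.H680.Exc

open Cfsg Cfsg.Lie Cfsg.Lie.ChevalleyDatum Cfsg.Agent.H190.Exc
open Cfsg.Agent.ChevalleyStructure Cfsg.Agent.ChevalleyStructure.Elts Cfsg.Agent.BpExc.RowsUntw
  Cfsg.Agent.BpExc.FamInst Cfsg.Agent.H378.ExcAdj
open Cfsg.Agent.H659.TwF4Adj Cfsg.Agent.H659.TwF4Ord Cfsg.Agent.H493.PGF4T

universe u

/-- cyclic centralisers of elements of order `s` give elements of order `|G|_s` -/
theorem CC.exists_orderOf {G : Type*} [Group G] [Finite G] {s : ℕ} (hs : s.Prime) (h : CC G s) (hd : s ∣ Nat.card G) :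
    ∃ x : G, orderOf x = s ^ (Nat.card G).factorization s := by
  have := Fact.mk hs
  obtain ⟨P⟩ : Nonempty (Sylow s G) := inferInstance
  have hP : Nat.card P = s ^ (Nat.card G).factorization s := P.card_eq_multiplicity
  have hne : Nat.card P ≠ 1 := by
    rw [hP]
    intro h1
    have h2 : (Nat.card G).factorization s ≠ 0 :=
      (hs.factorization_pos_of_dvd Nat.card_pos.ne' hd).ne'
    rcases pow_eq_one_iff.1 h1 with h3 | h3
    · exact hs.one_lt.ne' h3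
    · exact h2 h3
  have hnt : Nontrivial P := by
    rw [← Finite.one_lt_card_iff_nontrivial]
    have := Nat.card_pos (α := P)
    omega
  have hZ := P.2.center_nontrivial
  have hZd : s ∣ Nat.card (Subgroup.center P) := by
    have h4 := (P.2.to_subgroup (Subgroup.center P)).card_eq_or_dvd
    rcases h4 with h4 | h4
    · exact absurd h4 (Finite.one_lt_card_iff_nontrivial.2 hZ).ne'
    · exact h4
  obtain ⟨z, hz⟩ := exists_prime_orderOf_dvd_card' s hZd
  have hzG : orderOf ((z : P) : G) = s := by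
    rw [Subgroup.orderOf_coe, Subgroup.orderOf_coe, hz]
  have hle : (P : Subgroup G) ≤ Subgroup.centralizer ({((z : P) : G)} : Set G) := by
    intro g hg
    rw [Subgroup.mem_centralizer_singleton_iff]
    have := Subgroup.mem_center_iff.1 z.2 ⟨g, hg⟩
    exact congrArg Subtype.val this
  have hc := h _ hzG
  have hPc : IsCyclic P := isCyclic_of_injective (Subgroup.inclusion hle) (Subgroup.inclusion_injective hle)
  obtain ⟨g, hg⟩ := hPc.exists_generator
  refine ⟨(g : G), ?_⟩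
  rw [Subgroup.orderOf_coe, orderOf_eq_card_of_forall_mem_zpowers hg, hP]

variable {K : Type u} [Field K] [Fintype K] {m : ℕ} (hK : Fintype.card K = 2 ^ (2 * m + 1))

include hK

/-- primes dividing `q⁴ - 1` do not have cyclic centralisers -/
theorem not_cc {s : ℕ} (hs : s.Prime) (h11 : 11 ≤ s) (h : (s : ℤ) ∣ ((Fintype.card K : ℕ) : ℤ) ^ 4 - 1)
    (hsG : s ∣ Nat.card ↥(twistedF4 K (2 ^ m))) : ¬ CC ↥(twistedF4 K (2 ^ m)) s := by
  intro hcc
  have hF := Fact.mk hs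
  obtain ⟨x, hx⟩ := CC.exists_orderOf hs hcc hsG
  have h4 : orderOf (inc K (2 ^ m) x) = s ^ (Nat.card ↥(twistedF4 K (2 ^ m))).factorization s := by
    rw [orderOf_injective _ (inc_injective _), hx]
  have hsq : ¬ s ∣ Fintype.card K := by
    intro h1
    rw [hK] at h1
    have := (Nat.prime_dvd_prime_iff_eq hs Nat.prime_two).1 (hs.dvd_of_dvd_pow h1)
    omega
  have h5 := dvd_phi hs (by omega) (by omega) hsq h4
  -- the order of `q` modulo `s`
  set q : ℕ := Fintype.card K with hq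
  have hod : od q s ∣ 4 := by
    apply orderOf_dvd_of_pow_eq_one
    have h6 : (((q : ℤ) ^ 4 - 1 : ℤ) : ZMod s) = 0 := (ZMod.intCast_zmod_eq_zero_iff_dvd _ _).2 h
    push_cast at h6
    exact sub_eq_zero.1 h6
  have hodm : od q s = 1 ∨ od q s = 2 ∨ od q s = 4 := by
    have hmem : od q s ∈ Nat.divisors 4 := Nat.mem_divisors.2 ⟨hod, by norm_num⟩
    rw [show Nat.divisors 4 = {1, 2, 4} by decide] at hmem
    simpa only [Finset.mem_insert, Finset.mem_singleton] using hmem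
  set N : ℤ := (Polynomial.cyclotomic (od q s) ℤ).eval (q : ℤ) with hN
  have hq8 : 2 ≤ q := by
    rw [hK]
    calc 2 = 2 ^ 1 := rfl
      _ ≤ 2 ^ (2 * m + 1) := Nat.pow_le_pow_right (by norm_num) (by omega)
  have hcard : ((Nat.card ↥(twistedF4 K (2 ^ m)) : ℕ) : ℤ) =
      (q : ℤ) ^ 12 * ((q : ℤ) - 1) * ((q : ℤ) ^ 3 + 1) * ((q : ℤ) ^ 4 - 1) * ((q : ℤ) ^ 6 + 1) := by
    rw [S1068.result hK, ← hK]
    have h1 : 1 ≤ Fintype.card K := by omega
    have h4 : 1 ≤ Fintype.card K ^ 4 := Nat.one_le_pow _ _ (by omega)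
    rw [Nat.cast_mul, Nat.cast_mul, Nat.cast_mul, Nat.cast_mul, Nat.cast_sub h1, Nat.cast_sub h4]
    push_cast
    ring
  have hNN : N * N ∣ ((Nat.card ↥(twistedF4 K (2 ^ m)) : ℕ) : ℤ) := by
    rw [hcard, hN]
    rcases hodm with h6 | h6 | h6 <;> rw [h6]
    · rw [Polynomial.cyclotomic_one]
      simp only [Polynomial.eval_sub, Polynomial.eval_X, Polynomial.eval_one]
      exact ⟨(q : ℤ) ^ 12 * ((q : ℤ) ^ 3 + 1) * ((q : ℤ) ^ 3 + (q : ℤ) ^ 2 + q + 1) * ((q : ℤ) ^ 6 + 1), by ring⟩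
    · rw [Polynomial.cyclotomic_two]
      simp only [Polynomial.eval_add, Polynomial.eval_X, Polynomial.eval_one]
      exact ⟨(q : ℤ) ^ 12 * ((q : ℤ) - 1) * ((q : ℤ) ^ 2 - q + 1) * ((q : ℤ) ^ 3 - (q : ℤ) ^ 2 + q - 1) * ((q : ℤ) ^ 6 + 1), by ring⟩
    · rw [eval_cyc4]
      exact ⟨(q : ℤ) ^ 12 * ((q : ℤ) - 1) * ((q : ℤ) ^ 3 + 1) * ((q : ℤ) ^ 2 - 1) * ((q : ℤ) ^ 4 - (q : ℤ) ^ 2 + 1), by ring⟩
  have hNN' : N.natAbs * N.natAbs ∣ Nat.card ↥(twistedF4 K (2 ^ m)) := by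
    rw [← Int.natAbs_mul]
    exact Int.natCast_dvd_natCast.1 ((Int.natAbs_dvd).2 hNN)
  set j := (Nat.card ↥(twistedF4 K (2 ^ m))).factorization s with hj
  have hj0 : 0 < j := hs.factorization_pos_of_dvd Nat.card_pos.ne' hsG
  have h7 : s ^ (j + j) ∣ Nat.card ↥(twistedF4 K (2 ^ m)) := by
    rw [pow_add]
    exact (mul_dvd_mul h5 h5).trans hNN'
  have h8 := (hs.pow_dvd_iff_le_factorization Nat.card_pos.ne').1 h7
  omega

theorem card_tf4 {ρ : Finset ℕ} (h : Ind ↥(twistedF4 K (2 ^ m)) ρ) : ρ.card ≤ 3 := by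
  have hfin : Finite ↥(twistedF4 K (2 ^ m)) := inferInstance
  have hq : ((Fintype.card K : ℕ) : ℤ) = 2 * (2 ^ m) ^ 2 := H659.PglTwF4.card_eq hK
  have hf : ((Fintype.card K : ℕ) : ℤ) ^ 4 - 1 = f1 (2 ^ m) * f2 (2 ^ m) * (fp (2 ^ m) * fm (2 ^ m)) := by
    rw [hq]
    unfold f1 f2 fp fm
    ring
  refine card_le_of_cover h (![fun r => (r : ℤ) ∣ f6 (2 ^ m), fun r => (r : ℤ) ∣ fP (2 ^ m),
    fun r => (r : ℤ) ∣ fM (2 ^ m)]) ?_ ?_
  · intro r hr
    have h11 := h.ge r hr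
    have hn : ¬ (r : ℤ) ∣ ((Fintype.card K : ℕ) : ℤ) ^ 4 - 1 := fun h1 =>
      not_cc hK (h.prime r hr) h11 h1 (h.dvd r hr) (h.cc r hr)
    rw [hf] at hn
    rcases H659.PglTwF4.cover' hK (h.prime r hr) (h.dvd r hr) with (h1 | h1 | h1 | h1 | h1 | h1) | h1 | h1
    · omega
    · exact absurd ((h1.mul_right _).mul_right _) hn
    · exact absurd ((h1.mul_left _).mul_right _) hn
    · exact absurd ((h1.mul_right _).mul_left _) hn
    · exact absurd ((h1.mul_left _).mul_left _) hn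
    · exact ⟨0, h1⟩
    · exact ⟨1, h1⟩
    · exact ⟨2, h1⟩
  · intro i r hr s hs hrs h1 h2
    fin_cases i
    · exact adj_cert hK chainD_ok hThD certD_f6 certD_f6 (h.prime r hr) (h.prime s hs) hrs h1 h2
    · exact adj_fP hK (h.prime r hr) (h.prime s hs) hrs h1 h2
    · exact adj_fM hK (h.prime r hr) (h.prime s hs) hrs h1 h2

omit hK in
/-- **`²F₄(q)`** (task 1573) -/
theorem tf4_card {G : Type u} [Group G] (hG : Lie.Iso2F4 G) {ρ : Finset ℕ} (h : Ind G ρ) : ρ.card ≤ 3 := by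
  obtain ⟨K, _, _, m, hm, hK, ⟨e⟩⟩ := hG
  exact card_tf4 hK (h.congr e)

end Cfsg.Agent.H680.Exc
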